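import Cfsg.Agent.Th34.Main
import Cfsg.Agent.ThH99.Spor

/-!
The Thompson group as a group of matrices of degree 248 over the field with three elements.
-/

set_option autoImplicit false

namespace CfsgLib.Th34

open CfsgLib

theorem simple_of_mulEquiv {A B : Type*} [Group A] [Group B] [IsSimpleGroup A] (e : A ≃* B) :
    IsSimpleGroup B := by
  haveI : Nontrivial B := e.symm.toEquiv.nontrivial
  exact IsSimpleGroup.isSimpleGroup_of_surjective e.toMonoidHom e.surjective

/-- An injective map carries a simple group with a subgroup and a smaller one to its range. -/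
theorem realization_of {A M : Type*} [Group A] [Group M] (f : A →* M) (hf : Function.Injective f)
    (hA : Cfsg.IsTh A) (K L : Subgroup A) {n : ℕ} (hKn : K.index = n) (hLK : L ≤ K)
    (hL : Cfsg.Is3D4 L) :
    ∃ H' : Subgroup M, Cfsg.IsTh H' ∧
      ∃ K' : Subgroup H', K'.index = n ∧ ∃ L' : Subgroup H', L' ≤ K' ∧ Cfsg.Is3D4 L' := by
  let e : A ≃* f.range := MonoidHom.ofInjective hf
  haveI := hA.1
  refine ⟨f.range, ⟨simple_of_mulEquiv e, ?_⟩, K.map e.toMonoidHom, ?_,
    L.map e.toMonoidHom, Subgroup.map_mono hLK, ?_⟩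
  · rw [← Nat.card_congr e.toEquiv]
    exact hA.2
  · exact (Subgroup.index_map_equiv K e).trans hKn
  · obtain ⟨hs, q, hq, hc⟩ := hL
    haveI := hs
    let g := L.equivMapOfInjective e.toMonoidHom e.injective
    exact ⟨simple_of_mulEquiv g, q, hq, by rw [← Nat.card_congr g.toEquiv]; exact hc⟩

theorem realization : ∃ H' : Subgroup (GL (Fin 248) (ZMod 3)), Cfsg.IsTh H' ∧
    ∃ K : Subgroup H', K.index = 143127000 ∧ ∃ L' : Subgroup H', L' ≤ K ∧ Cfsg.Is3D4 L' :=
  realization_of ThRep32.rep rep_injective isTh H L index_H L_le_H (ThH99.is3D4_L L_ne_bot)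

end CfsgLib.Th34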